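/-
The presentation of the O'Nan group with its letters; the generator `g` has an inverse letter.
-/
import Cfsg.Agent.Lib.TC.Cox
import Cfsg.Prelude.Def_Spor_ON

set_option autoImplicit false

namespace Cfsg.Agent.Lib.TC.G.ON

open Cfsg.Spor Cfsg.Spor.ON

/-- The letters. -/
def code : Gen → ℕ
  | .a => 0 | .b => 1 | .c => 2 | .d => 3 | .e => 4 | .f => 5 | .g => 6

/-- The generators. -/
def dec : ℕ → Gen
  | 0 => .a | 1 => .b | 2 => .c | 3 => .d | 4 => .e | 5 => .f | _ => .g

/-- The inverses of the letters. -/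
def inv (g : ℕ) : ℕ := Bool.rec (Bool.rec g 6 (Nat.beq g 7)) 7 (Nat.beq g 6)

/-- The presentation. -/
def sys : Cfsg.Agent.Lib.TC.Sys Gen where
  rels := coxRelators edges ∪ {r | r ∈ extra}
  code := code
  inv := inv
  ng := 8
  dec := dec
  neg := fun g => Nat.beq g 7
  hcode := by intro x; cases x <;> decide
  hdec := by intro x; cases x <;> exact ⟨rfl, rfl⟩
  hinvc := by
    intro x
    cases x
    · exact ⟨by decide, rfl, Or.inl rfl⟩
    all_goals exact ⟨by decide, rfl, Or.inr ⟨rfl, sq_mem_cox _ _ (by decide)⟩⟩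
  hinv := by decide

/-- The words of the relators. -/
def relWords : List (List ℕ) := (coxRelsL edges extra).map (encW code inv)

theorem mem_relWords {r : FreeGroup Gen} (hr : r ∈ sys.rels) : encW code inv r ∈ relWords :=
  List.mem_map_of_mem ((mem_coxRelsL _ _ _).2 hr)

theorem of_mem_relWords {w : List ℕ} (hw : w ∈ relWords) : ∃ r ∈ sys.rels, encW sys.code sys.inv r = w := by
  obtain ⟨r, hr, rfl⟩ := List.mem_map.1 hw
  exact ⟨r, (mem_coxRelsL _ _ _).1 hr, rfl⟩

end Cfsg.Agent.Lib.TC.G.ON
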